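import Cfsg.Agent.Lib.Isolated.Basic

/-!
# The order formula for isolated involutions

`|G| = |C| * |C_K(s z)| * |C_K(s)|` for an involution `s` commuting with the isolated involution `z`.
-/

set_option autoImplicit false

namespace Cfsg.Agent.Lib.Isolated.OrderFormula

open Cfsg Cfsg.Agent.Lib.Isolated.Basic

variable {G : Type*} [Group G]

/-- Fourth roots in odd-order cyclic groups. -/
lemma exists_sq_root {c : G} (hodd : Odd (orderOf c)) :
    ∃ i ∈ Subgroup.zpowers c, i ^ 2 = c ∧ Odd (orderOf i) := by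
  obtain ⟨t, ht⟩ := hodd
  refine ⟨c ^ (t + 1), Subgroup.pow_mem _ (Subgroup.mem_zpowers c) _, ?_, ?_⟩
  · rw [← pow_mul, show (t + 1) * 2 = (2 * t + 1) + 1 by ring, pow_succ, ← ht, pow_orderOf_eq_one,
      one_mul]
  · apply Odd.of_dvd_nat (n := 2 * t + 1) ⟨t, rfl⟩
    rw [← ht]
    exact orderOf_pow_dvd _

lemma exists_fourth_root {c : G} (hodd : Odd (orderOf c)) :
    ∃ i ∈ Subgroup.zpowers c, i ^ 4 = c ∧ Odd (orderOf i) := by
  obtain ⟨i, hi, hi2, hiodd⟩ := exists_sq_root hodd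
  obtain ⟨j, hj, hj2, hjodd⟩ := exists_sq_root hiodd
  refine ⟨j, ?_, ?_, hjodd⟩
  · exact (Subgroup.zpowers_le.mpr hi) hj
  · rw [show 4 = 2 * 2 by norm_num, pow_mul, hj2, hi2]

lemma odd_orderOf_pow {a : G} (ha : Odd (orderOf a)) (n : ℕ) : Odd (orderOf (a ^ n)) :=
  Odd.of_dvd_nat ha (orderOf_pow_dvd n)

lemma eq_of_pow_four_eq {a b : G} (ha : Odd (orderOf a)) (hb : Odd (orderOf b)) (h : a ^ 4 = b ^ 4) :
    a = b := by
  apply eq_of_sq_eq ha hb
  apply eq_of_sq_eq (odd_orderOf_pow ha 2) (odd_orderOf_pow hb 2)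
  rw [← pow_mul, ← pow_mul]
  exact h

variable {z s : G}

/-- A general computation: if `e` and `s` are square-one, commute, and both invert `i`, then
`d = i e i⁻¹` satisfies `d (s d s) = i⁴`. -/
lemma product_formula {e i : G} (he : e * e = 1) (hs : s * s = 1) (hes : s * e * s = e)
    (hei : e * i * e = i⁻¹) (hsi : s * i * s = i⁻¹) :
    (i * e * i⁻¹) * (s * (i * e * i⁻¹) * s) = i ^ 4 := by
  have h1 : s * (i * e * i⁻¹) * s = i⁻¹ * e * i := by
    have h2 : s * i⁻¹ * s = i := by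
      have : s⁻¹ = s := inv_eq_of_mul_eq_one_left hs
      have h3 := congrArg (fun t => t⁻¹) hsi
      simp only [mul_inv_rev, inv_inv, this] at h3
      rw [← mul_assoc] at h3
      exact h3
    calc s * (i * e * i⁻¹) * s = (s * i * s) * (s * e * s) * (s * i⁻¹ * s) := by
          simp only [mul_assoc]
          rw [← mul_assoc s s, hs, one_mul, ← mul_assoc s s, hs, one_mul]
      _ = i⁻¹ * e * i := by rw [hsi, hes, h2]
  rw [h1]
  have h4 : e * i⁻¹ * e = i := by
    have : e⁻¹ = e := inv_eq_of_mul_eq_one_left he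
    have h3 := congrArg (fun t => t⁻¹) hei
    simp only [mul_inv_rev, inv_inv, this] at h3
    rw [← mul_assoc] at h3
    exact h3
  calc (i * e * i⁻¹) * (i⁻¹ * e * i) = i * (e * i⁻¹ * (e * e) * i⁻¹ * e) * i := by
        rw [he, mul_one]
        group
    _ = i * ((e * i⁻¹ * e) * (e * i⁻¹ * e)) * i := by simp only [mul_assoc]
    _ = i ^ 4 := by
        rw [h4]
        simp only [pow_succ, pow_zero, one_mul, mul_assoc]

lemma odd_orderOf_conj {x : G} (g : G) (hx : Odd (orderOf x)) : Odd (orderOf (g * x * g⁻¹)) := by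
  have := (MulAut.conj g).orderOf_eq x
  rw [MulAut.conj_apply] at this
  rwa [this]

lemma odd_orderOf_conj' {x : G} (hx : Odd (orderOf x)) (g : G) : Odd (orderOf (g⁻¹ * x * g)) := by
  have := odd_orderOf_conj g⁻¹ hx
  rwa [inv_inv] at this

/-- Basic package for a pair `(a, b)`. -/
lemma pair_facts (hzz : z * z = 1) (hs : s * s = 1) (hszs : s * z * s = z) {a b : G}
    (haz : z * a * z = a⁻¹) (has : a * s = s * a) (hbz : z * b * z = b⁻¹) (hbs : s * b * s = b⁻¹) :
    (a * z * a⁻¹) * (a * z * a⁻¹) = 1 ∧ s * (a * z * a⁻¹) * s = a * z * a⁻¹ ∧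
      (a * z * a⁻¹) * (a * b * a⁻¹) * (a * z * a⁻¹) = (a * b * a⁻¹)⁻¹ ∧
      s * (a * b * a⁻¹) * s = (a * b * a⁻¹)⁻¹ := by
  have hsinv : s⁻¹ = s := inv_eq_of_mul_eq_one_left hs
  have has' : a⁻¹ * s = s * a⁻¹ := by
    have := congrArg (fun t => a⁻¹ * t * a⁻¹) has
    have e1 : a⁻¹ * (a * s) * a⁻¹ = s * a⁻¹ := by group
    have e2 : a⁻¹ * (s * a) * a⁻¹ = a⁻¹ * s := by group
    rw [e1, e2] at this
    exact this.symm
  have e1 : (a * z * a⁻¹) * (a * z * a⁻¹) = a * (z * z) * a⁻¹ := by group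
  have e2 : s * (a * z * a⁻¹) * s = a * (s * z * s) * a⁻¹ := by
    calc s * (a * z * a⁻¹) * s = (s * a) * z * (a⁻¹ * s) := by group
      _ = (a * s) * z * (s * a⁻¹) := by rw [has, has']
      _ = a * (s * z * s) * a⁻¹ := by group
  have e3 : s * (a * b * a⁻¹) * s = a * (s * b * s) * a⁻¹ := by
    calc s * (a * b * a⁻¹) * s = (s * a) * b * (a⁻¹ * s) := by group
      _ = (a * s) * b * (s * a⁻¹) := by rw [has, has']
      _ = a * (s * b * s) * a⁻¹ := by group
  refine ⟨by rw [e1, hzz]; group, by rw [e2, hszs], ?_, by rw [e3, hbs]; group⟩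
  calc (a * z * a⁻¹) * (a * b * a⁻¹) * (a * z * a⁻¹) = a * (z * b * z) * a⁻¹ := by group
    _ = (a * b * a⁻¹)⁻¹ := by rw [hbz]; group

/-- Injectivity core. -/
lemma inj_core (hzz : z * z = 1) (hs : s * s = 1) (hszs : s * z * s = z) {a b a' b' : G}
    (hao : Odd (orderOf a)) (haz : z * a * z = a⁻¹) (has : a * s = s * a)
    (hbo : Odd (orderOf b)) (hbz : z * b * z = b⁻¹) (hbs : s * b * s = b⁻¹)
    (hao' : Odd (orderOf a')) (haz' : z * a' * z = a'⁻¹) (has' : a' * s = s * a')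
    (hbo' : Odd (orderOf b')) (hbz' : z * b' * z = b'⁻¹) (hbs' : s * b' * s = b'⁻¹)
    (hd : (a * b) * z * (a * b)⁻¹ = (a' * b') * z * (a' * b')⁻¹) : a = a' ∧ b = b' := by
  have hzinv : z⁻¹ = z := inv_eq_of_mul_eq_one_left hzz
  obtain ⟨he, hes, hei, hsi⟩ := pair_facts hzz hs hszs haz has hbz hbs
  obtain ⟨he', hes', hei', hsi'⟩ := pair_facts hzz hs hszs haz' has' hbz' hbs'
  have hform := product_formula he hs hes hei hsi
  have hform' := product_formula he' hs hes' hei' hsi'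
  have hdd : ∀ (a b : G), (a * b * a⁻¹) * (a * z * a⁻¹) * (a * b * a⁻¹)⁻¹ = (a * b) * z * (a * b)⁻¹ := by
    intro a b
    group
  rw [hdd] at hform hform'
  rw [hd] at hform
  have hii : a * b * a⁻¹ = a' * b' * a'⁻¹ :=
    eq_of_pow_four_eq (odd_orderOf_conj _ hbo) (odd_orderOf_conj _ hbo') (hform.symm.trans hform')
  have hee : a * z * a⁻¹ = a' * z * a'⁻¹ := by
    have h1 := hdd a b
    have h2 := hdd a' b'
    rw [← hii, ← hd, ← h1] at h2
    exact (mul_left_cancel (mul_right_cancel h2)).symm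
  have haa : a = a' := by
    apply midpoint_unique hzz ⟨hao, ?_⟩ ⟨hao', ?_⟩ hee
    · rw [hzinv]; exact haz
    · rw [hzinv]; exact haz'
  refine ⟨haa, ?_⟩
  subst haa
  have := mul_left_cancel (mul_right_cancel hii)
  exact this

/-- Surjectivity core. -/
lemma surj_core [Finite G] (hz : IsIsolatedInvolution z) (hs : s * s = 1) (hszs : s * z * s = z) (g : G) :
    ∃ a b : G, Odd (orderOf a) ∧ z * a * z = a⁻¹ ∧ a * s = s * a ∧
      Odd (orderOf b) ∧ z * b * z = b⁻¹ ∧ s * b * s = b⁻¹ ∧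
      (a * b) * z * (a * b)⁻¹ = g * z * g⁻¹ := by
  have hzz : z * z = 1 := mul_self hz
  have hzinv : z⁻¹ = z := inv_eq hz
  have hsinv : s⁻¹ = s := inv_eq_of_mul_eq_one_left hs
  obtain ⟨d, hd⟩ : ∃ d, d = g * z * g⁻¹ := ⟨_, rfl⟩
  rw [← hd]
  have hdiso : IsIsolatedInvolution d := by rw [hd]; exact conj hz g
  have hdd : d * d = 1 := mul_self hdiso
  have hdinv : d⁻¹ = d := inv_eq hdiso
  obtain ⟨d', hd'⟩ : ∃ d', d' = s * d * s := ⟨_, rfl⟩
  have hd'd' : d' * d' = 1 := by
    have : d' * d' = s * (d * d) * s := by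
      rw [hd']
      calc s * d * s * (s * d * s) = s * d * (s * s) * d * s := by group
        _ = s * d * d * s := by rw [hs, mul_one]
        _ = s * (d * d) * s := by group
    rw [this, hdd, mul_one, hs]
  have hd'inv : d'⁻¹ = d' := inv_eq_of_mul_eq_one_left hd'd'
  have hsd' : s * d' * s = d := by
    calc s * d' * s = (s * s) * d * (s * s) := by rw [hd']; group
      _ = d := by rw [hs]; group
  have hoddc : Odd (orderOf (d * d')) := by
    have := odd_orderOf_mul_conj hdiso s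
    rwa [hsinv, ← hd'] at this
  obtain ⟨c, hc⟩ : ∃ c, c = d * d' := ⟨_, rfl⟩
  rw [← hc] at hoddc
  have hcinv : c⁻¹ = d' * d := by rw [hc, mul_inv_rev, hdinv, hd'inv]
  have hdc : d * c * d⁻¹ = c⁻¹ := by
    rw [hdinv, hcinv, hc, ← mul_assoc, hdd, one_mul]
  have hsc : s * c * s⁻¹ = c⁻¹ := by
    rw [hsinv, hcinv, hc]
    calc s * (d * d') * s = (s * d * s) * (s * d' * s) := by
          calc s * (d * d') * s = s * d * 1 * d' * s := by group
            _ = s * d * (s * s) * d' * s := by rw [hs]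
            _ = _ := by group
      _ = d' * d := by rw [hsd', ← hd']
  obtain ⟨i, hic, hi4, hiodd⟩ := exists_fourth_root hoddc
  obtain ⟨n, hi⟩ := Subgroup.mem_zpowers_iff.mp hic
  replace hi := hi.symm
  have hdi : d * i * d = i⁻¹ := by
    have := _root_.conj_zpow (a := d) (b := c) (i := n)
    rw [hdc, inv_zpow, hdinv] at this
    rw [hi, ← this]
  have hsi : s * i * s = i⁻¹ := by
    have := _root_.conj_zpow (a := s) (b := c) (i := n)
    rw [hsc, inv_zpow, hsinv] at this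
    rw [hi, ← this]
  have hd'form : d' = d * i ^ 4 := by
    rw [hi4, hc, ← mul_assoc, hdd, one_mul]
  -- `e = i⁻¹ d i`
  obtain ⟨e, he⟩ : ∃ e, e = i⁻¹ * d * i := ⟨_, rfl⟩
  have hdi' : d * i = i⁻¹ * d := by
    have : d * i * d * d = i⁻¹ * d := by rw [hdi]
    rwa [mul_assoc, hdd, mul_one] at this
  have hdipow : ∀ k : ℕ, d * i ^ k = (i⁻¹) ^ k * d := by
    intro k
    induction k with
    | zero => simp
    | succ k ih =>
      rw [pow_succ, ← mul_assoc, ih, mul_assoc, hdi', pow_succ, mul_assoc]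
  have hee : e = i⁻¹ * i⁻¹ * d := by
    rw [he, mul_assoc, hdi', mul_assoc]
  have hse : s * e * s = e := by
    have h1 : s * e * s = (s * i⁻¹ * s) * d' * (s * i * s) := by
      rw [he, hd']
      calc s * (i⁻¹ * d * i) * s = s * i⁻¹ * 1 * d * 1 * i * s := by group
        _ = s * i⁻¹ * (s * s) * d * (s * s) * i * s := by rw [hs]
        _ = _ := by group
    have hsi' : s * i⁻¹ * s = i := by
      have h3 := congrArg (fun t => t⁻¹) hsi
      simp only [mul_inv_rev, inv_inv, hsinv] at h3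
      rw [← mul_assoc] at h3
      exact h3
    rw [h1, hsi', hsi, hd'form, hee]
    calc i * (d * i ^ 4) * i⁻¹ = i * ((i⁻¹) ^ 4 * d) * i⁻¹ := by rw [hdipow]
      _ = i * (i⁻¹) ^ 4 * (d * i⁻¹) := by group
      _ = i * (i⁻¹) ^ 4 * (i * d) := by
        have : d * i⁻¹ = i * d := by
          have h4 : d * i⁻¹ = d * (d * i * d) := by rw [hdi]
          rw [h4, ← mul_assoc, ← mul_assoc, hdd, one_mul]
        rw [this]
      _ = i⁻¹ * i⁻¹ * d := by group
  have hee2 : e * i * e = i⁻¹ := by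
    rw [he]
    calc i⁻¹ * d * i * i * (i⁻¹ * d * i) = i⁻¹ * (d * i * d) * i := by group
      _ = i⁻¹ := by rw [hdi]; group
  -- midpoint between `z` and `e`
  have heform : e = (i⁻¹ * g) * z * (i⁻¹ * g)⁻¹ := by
    rw [he, hd]
    group
  obtain ⟨a, hazp, hao, haz, hae⟩ := exists_midpoint hz (i⁻¹ * g)
  rw [← heform] at hazp hae
  have hcomm : Commute s (z * e) := by
    have h1 : Commute s z := by
      show s * z = z * s
      calc s * z = s * z * (s * s) := by rw [hs, mul_one]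
        _ = (s * z * s) * s := by group
        _ = z * s := by rw [hszs]
    have h2 : Commute s e := by
      show s * e = e * s
      calc s * e = s * e * (s * s) := by rw [hs, mul_one]
        _ = (s * e * s) * s := by group
        _ = e * s := by rw [hse]
    exact h1.mul_right h2
  have has : a * s = s * a := by
    obtain ⟨m, rfl⟩ := Subgroup.mem_zpowers_iff.mp hazp
    exact ((hcomm.zpow_right m).eq).symm
  have hza : z * a * z = a⁻¹ := by rwa [hzinv] at haz
  refine ⟨a, a⁻¹ * i * a, hao, hza, has, odd_orderOf_conj' hiodd a, ?_, ?_, ?_⟩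
  · -- `z b z = b⁻¹`
    have h1 : a * z = e * a := by
      rw [← hae]
      group
    have h2 : z * a⁻¹ = a⁻¹ * e := by
      rw [← hae]
      group
    calc z * (a⁻¹ * i * a) * z = (z * a⁻¹) * i * (a * z) := by group
      _ = a⁻¹ * (e * i * e) * a := by rw [h1, h2]; group
      _ = (a⁻¹ * i * a)⁻¹ := by rw [hee2]; group
  · have has' : a⁻¹ * s = s * a⁻¹ := by
      have := congrArg (fun t => a⁻¹ * t * a⁻¹) has
      have e1 : a⁻¹ * (a * s) * a⁻¹ = s * a⁻¹ := by group
      have e2 : a⁻¹ * (s * a) * a⁻¹ = a⁻¹ * s := by group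
      rw [e1, e2] at this
      exact this.symm
    calc s * (a⁻¹ * i * a) * s = (s * a⁻¹) * i * (a * s) := by group
      _ = a⁻¹ * (s * i * s) * a := by rw [has, ← has']; group
      _ = (a⁻¹ * i * a)⁻¹ := by rw [hsi]; group
  · calc (a * (a⁻¹ * i * a)) * z * (a * (a⁻¹ * i * a))⁻¹ = i * (a * z * a⁻¹) * i⁻¹ := by group
      _ = i * e * i⁻¹ := by rw [hae]
      _ = d := by rw [he]; group

/-- The order formula for isolated involutions. -/
theorem card_formula [Finite G] (hz : IsIsolatedInvolution z) (hs : s * s = 1) (hsz : Commute s z) :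
    Nat.card G = Nat.card (Subgroup.centralizer ({z} : Set G)) *
      Nat.card {k : G // Odd (orderOf k) ∧ z * k * z⁻¹ = k⁻¹ ∧ Commute k (s * z)} *
      Nat.card {k : G // Odd (orderOf k) ∧ z * k * z⁻¹ = k⁻¹ ∧ Commute k s} := by
  classical
  have hzz : z * z = 1 := mul_self hz
  have hzinv : z⁻¹ = z := inv_eq hz
  have hsinv : s⁻¹ = s := inv_eq_of_mul_eq_one_left hs
  have hszs : s * z * s = z := by
    rw [hsz.eq, mul_assoc, hs, mul_one]
  -- basic facts about elements of `KI`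
  have hKI : ∀ b : G, z * b * z⁻¹ = b⁻¹ → Commute b (s * z) → s * b * s = b⁻¹ := by
    intro b hb hc
    have h1 : z * b * z = b⁻¹ := by rwa [hzinv] at hb
    have h2 : b * (s * z) = (s * z) * b := hc.eq
    have h3 : b = s * b⁻¹ * s := by
      calc b = b * (s * z) * (z * s) := by
            have : (s * z) * (z * s) = 1 := by
              rw [mul_assoc, ← mul_assoc z, hzz, one_mul, hs]
            rw [mul_assoc, this, mul_one]
        _ = (s * z) * b * (z * s) := by rw [h2]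
        _ = s * (z * b * z) * s := by group
        _ = s * b⁻¹ * s := by rw [h1]
    have h4 := congrArg (fun t => t⁻¹) h3
    simp only [mul_inv_rev, inv_inv, hsinv] at h4
    rw [h4, mul_assoc]
  have hKI' : ∀ b : G, z * b * z⁻¹ = b⁻¹ → s * b * s = b⁻¹ → Commute b (s * z) := by
    intro b hb hc
    have h1 : z * b * z = b⁻¹ := by rwa [hzinv] at hb
    have h2 : s * b⁻¹ * s = b := by
      have h3 := congrArg (fun t => t⁻¹) hc
      simp only [mul_inv_rev, inv_inv, hsinv] at h3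
      rw [← mul_assoc] at h3
      exact h3
    show b * (s * z) = (s * z) * b
    calc b * (s * z) = (s * b⁻¹ * s) * (s * z) := by rw [h2]
      _ = s * b⁻¹ * (s * s) * z := by group
      _ = s * b⁻¹ * z := by rw [hs, mul_one]
      _ = s * (z * b * z) * z := by rw [h1]
      _ = s * z * b * (z * z) := by group
      _ = (s * z) * b := by rw [hzz, mul_one]
  -- the bijection
  let F : (Subgroup.centralizer ({z} : Set G) ×
      {k : G // Odd (orderOf k) ∧ z * k * z⁻¹ = k⁻¹ ∧ Commute k (s * z)}) ×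
      {k : G // Odd (orderOf k) ∧ z * k * z⁻¹ = k⁻¹ ∧ Commute k s} → G :=
    fun p => (p.2 : G) * (p.1.2 : G) * (p.1.1 : G)
  have hz1 : ∀ k : G, z * k * z⁻¹ = k⁻¹ → z * k * z = k⁻¹ := fun k h => by rwa [hzinv] at h
  have hFinj : Function.Injective F := by
    rintro ⟨⟨⟨c, hc⟩, ⟨b, hb1, hb2, hb3⟩⟩, ⟨a, ha1, ha2, ha3⟩⟩ ⟨⟨⟨c', hc'⟩, ⟨b', hb1', hb2', hb3'⟩⟩, ⟨a', ha1', ha2', ha3'⟩⟩ hF
    have hF' : a * b * c = a' * b' * c' := hF
    have hcz : c * z = z * c := mem_centralizer_singleton_iff.mp hc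
    have hcz' : c' * z = z * c' := mem_centralizer_singleton_iff.mp hc'
    have hd : (a * b) * z * (a * b)⁻¹ = (a' * b') * z * (a' * b')⁻¹ := by
      have h1 : (a * b * c) * z * (a * b * c)⁻¹ = (a * b) * z * (a * b)⁻¹ := by
        calc (a * b * c) * z * (a * b * c)⁻¹ = (a * b) * (c * z) * c⁻¹ * (a * b)⁻¹ := by group
          _ = _ := by rw [hcz]; group
      have h2 : (a' * b' * c') * z * (a' * b' * c')⁻¹ = (a' * b') * z * (a' * b')⁻¹ := by
        calc (a' * b' * c') * z * (a' * b' * c')⁻¹ = (a' * b') * (c' * z) * c'⁻¹ * (a' * b')⁻¹ := by group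
          _ = _ := by rw [hcz']; group
      rw [← h1, ← h2, hF']
    obtain ⟨haa, hbb⟩ := inj_core hzz hs hszs ha1 (hz1 a ha2) ha3.eq hb1 (hz1 b hb2) (hKI b hb2 hb3)
      ha1' (hz1 a' ha2') ha3'.eq hb1' (hz1 b' hb2') (hKI b' hb2' hb3') hd
    subst haa hbb
    have hcc : c = c' := mul_left_cancel hF'
    subst hcc
    rfl
  have hFsurj : Function.Surjective F := by
    intro g
    obtain ⟨a, b, ha1, ha2, ha3, hb1, hb2, hb3, hd⟩ := surj_core hz hs hszs g
    have hc : (a * b)⁻¹ * g ∈ Subgroup.centralizer ({z} : Set G) := by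
      rw [mem_centralizer_singleton_iff]
      calc (a * b)⁻¹ * g * z = (a * b)⁻¹ * (g * z * g⁻¹) * g := by group
        _ = (a * b)⁻¹ * ((a * b) * z * (a * b)⁻¹) * g := by rw [hd]
        _ = z * ((a * b)⁻¹ * g) := by group
    refine ⟨⟨⟨⟨_, hc⟩, ⟨b, hb1, by rw [hzinv]; exact hb2, hKI' b (by rw [hzinv]; exact hb2) hb3⟩⟩,
      ⟨a, ha1, by rw [hzinv]; exact ha2, ha3⟩⟩, ?_⟩
    show a * b * ((a * b)⁻¹ * g) = g
    group
  have h := Nat.card_congr (Equiv.ofBijective F ⟨hFinj, hFsurj⟩)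
  rw [Nat.card_prod, Nat.card_prod] at h
  exact h.symm

end Cfsg.Agent.Lib.Isolated.OrderFormula
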